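import Mathlib
import Cfsg.Prelude.Def_GeometricClasses

set_option autoImplicit false
open scoped MatrixGroups

namespace Cfsg.Agent.Lead.S5998p1

/-- a group of order 1, 3 or 9 is commutative -/
theorem comm_of_card {H : Type*} [Group H]
    (h : Nat.card H = 1 ∨ Nat.card H = 3 ∨ Nat.card H = 9) : ∀ x y : H, x * y = y * x := by
  haveI : Fact (Nat.Prime 3) := ⟨Nat.prime_three⟩
  rcases h with h | h | h
  · have : Subsingleton H := (Nat.card_eq_one_iff_unique.mp h).1
    intro x y
    rw [Subsingleton.elim x y]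
  · have hc : IsCyclic H := isCyclic_of_prime_card (p := 3) h
    obtain ⟨g, hg⟩ := IsCyclic.exists_generator (α := H)
    intro x y
    obtain ⟨m, rfl⟩ := Subgroup.mem_zpowers_iff.mp (hg x)
    obtain ⟨n, rfl⟩ := Subgroup.mem_zpowers_iff.mp (hg y)
    exact zpow_mul_comm g m n
  · exact IsPGroup.commutative_of_card_eq_prime_sq (p := 3) (by rw [h]; norm_num)

/-- divisors of 27 -/
theorem dvd27 (q : ℕ) (hq : q ∣ 27) : q = 1 ∨ q = 3 ∨ q = 9 ∨ q = 27 := by
  have hq' : q ∣ 3 ^ 3 := by norm_num; exact hq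
  obtain ⟨k, hk, hqk⟩ := (Nat.dvd_prime_pow Nat.prime_three).mp hq'
  interval_cases k
  · left; simpa using hqk
  · right; left; simpa using hqk
  · right; right; left; simpa using hqk
  · right; right; right; simpa using hqk

theorem p1 {G : Type*} [Group G] (R : Subgroup G) (hR : Nat.card R = 27) (hRe : Monoid.exponent R = 3) (hRna : ¬ IsMulCommutative R) :
    ∃ a b z : G, a ∈ R ∧ b ∈ R ∧ z ≠ 1 ∧ a * b = z * (b * a) ∧ z * a = a * z ∧ z * b = b * z ∧ a ^ 3 = 1 ∧ b ^ 3 = 1 ∧ z ^ 3 = 1 ∧ R = Subgroup.closure {a, b} := by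
  classical
  haveI : Fact (Nat.Prime 3) := ⟨Nat.prime_three⟩
  haveI : Finite R := Nat.finite_of_card_ne_zero (by rw [hR]; norm_num)
  obtain ⟨a, b, hab⟩ : ∃ a b : R, a * b ≠ b * a := by
    by_contra h
    push_neg at h
    exact hRna ⟨⟨h⟩⟩
  have hpg : IsPGroup 3 R := IsPGroup.of_card (n := 3) (by rw [hR]; norm_num)
  haveI : Nontrivial R := ⟨⟨a, b, fun h => hab (by rw [h])⟩⟩
  haveI hZnt : Nontrivial (Subgroup.center R) := hpg.center_nontrivial
  have hZ1 : 1 < Nat.card (Subgroup.center R) := Finite.one_lt_card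
  have hmul : Nat.card (Subgroup.center R) * Nat.card (R ⧸ Subgroup.center R) = 27 := by
    rw [← hR, mul_comm]
    exact (Subgroup.card_eq_card_quotient_mul_card_subgroup _).symm
  have hqcomm : ∀ x y : R ⧸ Subgroup.center R, x * y = y * x := by
    apply comm_of_card
    rcases dvd27 _ (Dvd.intro_left _ hmul) with h | h | h | h
    · exact Or.inl h
    · exact Or.inr (Or.inl h)
    · exact Or.inr (Or.inr h)
    · exfalso
      rw [h] at hmul
      omega
  obtain ⟨zR, hzR⟩ : ∃ zR : R, zR = a * b * a⁻¹ * b⁻¹ := ⟨_, rfl⟩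
  have hzc : zR ∈ Subgroup.center R := by
    have h1 : (QuotientGroup.mk zR : R ⧸ Subgroup.center R) = 1 := by
      rw [hzR]
      simp only [QuotientGroup.mk_mul, QuotientGroup.mk_inv]
      rw [hqcomm (QuotientGroup.mk a) (QuotientGroup.mk b)]
      group
    exact (QuotientGroup.eq_one_iff zR).mp h1
  have hz1 : zR ≠ 1 := by
    intro h
    apply hab
    have h2 : a * b * a⁻¹ * b⁻¹ = 1 := by rw [← hzR]; exact h
    have h3 := congrArg (fun x => x * (b * a)) h2
    simpa [mul_assoc] using h3
  have e1 : a * b = zR * (b * a) := by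
    rw [hzR]; simp [mul_assoc]
  have e2 : zR * a = a * zR := ((Subgroup.mem_center_iff.mp hzc) a).symm
  have e3 : zR * b = b * zR := ((Subgroup.mem_center_iff.mp hzc) b).symm
  have pw : ∀ x : R, x ^ 3 = 1 := by
    intro x
    have := Monoid.pow_exponent_eq_one x
    rwa [hRe] at this
  have cz : ∀ x y : R, x = y → (x : G) = (y : G) := fun x y h => by rw [h]
  refine ⟨(a : G), (b : G), (zR : G), a.2, b.2, ?_, ?_, ?_, ?_, ?_, ?_, ?_, ?_⟩
  · intro h
    exact hz1 (Subtype.ext h)
  · have := cz _ _ e1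
    simpa using this
  · have := cz _ _ e2
    simpa using this
  · have := cz _ _ e3
    simpa using this
  · have := cz _ _ (pw a)
    simpa using this
  · have := cz _ _ (pw b)
    simpa using this
  · have := cz _ _ (pw zR)
    simpa using this
  · have hle : Subgroup.closure ({(a : G), (b : G)} : Set G) ≤ R := by
      rw [Subgroup.closure_le]
      intro x hx
      rcases hx with rfl | rfl
      · exact a.2
      · exact b.2
    have haC : (a : G) ∈ Subgroup.closure ({(a : G), (b : G)} : Set G) :=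
      Subgroup.subset_closure (by simp)
    have hbC : (b : G) ∈ Subgroup.closure ({(a : G), (b : G)} : Set G) :=
      Subgroup.subset_closure (by simp)
    have hdv : Nat.card (Subgroup.closure ({(a : G), (b : G)} : Set G)) ∣ 27 := by
      rw [← hR]; exact Subgroup.card_dvd_of_le hle
    have hnc : ¬ (∀ x y : Subgroup.closure ({(a : G), (b : G)} : Set G), x * y = y * x) := by
      intro hc
      have := hc ⟨(a : G), haC⟩ ⟨(b : G), hbC⟩
      apply hab
      apply Subtype.ext
      have h5 := congrArg Subtype.val this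
      simpa using h5
    rcases dvd27 _ hdv with h | h | h | h
    · exact absurd (comm_of_card (Or.inl h)) hnc
    · exact absurd (comm_of_card (Or.inr (Or.inl h))) hnc
    · exact absurd (comm_of_card (Or.inr (Or.inr h))) hnc
    · exact (Subgroup.eq_of_le_of_card_ge hle (by rw [hR, h])).symm

end Cfsg.Agent.Lead.S5998p1
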