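import Cfsg.Agent.Lead.FrobConj
import Mathlib

/-!
Quotients of Frobenius groups (lead).
-/

set_option autoImplicit false
open Pointwise

namespace Cfsg.Agent.Lead

open Cfsg.Agent.S0001

universe u

variable {G : Type u} [Group G]

theorem FrobData.sigma_inj {H N : Subgroup G} (d : FrobData H N) {h k k' : G} (hh : h ∈ H)
    (h1 : h ≠ 1) (hk : k ∈ N) (hk' : k' ∈ N)
    (he : k * (h * k⁻¹ * h⁻¹) = k' * (h * k'⁻¹ * h⁻¹)) : k = k' := by
  have h2 : k * h * k⁻¹ = k' * h * k'⁻¹ := by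
    have e1 : k * h * k⁻¹ = (k * (h * k⁻¹ * h⁻¹)) * h := by group
    have e2 : k' * h * k'⁻¹ = (k' * (h * k'⁻¹ * h⁻¹)) * h := by group
    rw [e1, e2, he]
  have hc : (k'⁻¹ * k) * h = h * (k'⁻¹ * k) := by
    calc (k'⁻¹ * k) * h = k'⁻¹ * (k * h * k⁻¹) * k := by group
      _ = k'⁻¹ * (k' * h * k'⁻¹) * k := by rw [h2]
      _ = h * (k'⁻¹ * k) := by group
  have hc1 := d.comm hh h1 (N.mul_mem (N.inv_mem hk') hk) hc
  calc k = k' * (k'⁻¹ * k) := by group
    _ = k' := by rw [hc1, mul_one]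

/-- If `h ∈ H ∖ 1` centralises `k ∈ N` modulo a normal subgroup `M ≤ N`, then `k ∈ M`. -/
theorem FrobData.mem_of_comm_mod [Finite G] {H N : Subgroup G} (d : FrobData H N)
    (M : Subgroup G) (hM : M.Normal) (hMN : M ≤ N) {h k : G} (hh : h ∈ H) (h1 : h ≠ 1)
    (hk : k ∈ N) (hkM : k * (h * k⁻¹ * h⁻¹) ∈ M) : k ∈ M := by
  have hmem : ∀ m : M, (m : G) * (h * (m : G)⁻¹ * h⁻¹) ∈ M := fun m =>
    M.mul_mem m.2 (hM.conj_mem _ (M.inv_mem m.2) _)
  obtain ⟨σ, hσ⟩ : ∃ σ : M → M, ∀ m : M, (σ m : G) = (m : G) * (h * (m : G)⁻¹ * h⁻¹) :=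
    ⟨fun m => ⟨_, hmem m⟩, fun m => rfl⟩
  have hinj : Function.Injective σ := by
    intro m m' hmm
    have h0 := congrArg (fun z : M => (z : G)) hmm
    simp only [hσ] at h0
    exact Subtype.ext (d.sigma_inj hh h1 (hMN m.2) (hMN m'.2) h0)
  have hsurj : Function.Surjective σ := (Finite.injective_iff_bijective.1 hinj).2
  obtain ⟨m, hm⟩ := hsurj ⟨_, hkM⟩
  have h0 := congrArg (fun z : M => (z : G)) hm
  simp only [hσ] at h0
  have e := d.sigma_inj hh h1 (hMN m.2) hk h0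
  rw [← e]; exact m.2

/-- The quotient of a Frobenius group by a normal subgroup not containing the kernel is a
Frobenius group, with the images of complement and kernel. -/
theorem frob_quotient [Finite G] (R : Subgroup G) (hR : Cfsg.IsFrobeniusComplement R)
    (N : Subgroup G) [hNn : N.Normal] (hKN : ¬ Cfsg.frobeniusKernel R ⊆ N) :
    Cfsg.IsFrobeniusComplement (R.map (QuotientGroup.mk' N)) ∧
      Cfsg.frobeniusKernel (R.map (QuotientGroup.mk' N)) =
        QuotientGroup.mk' N '' Cfsg.frobeniusKernel R := by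
  obtain ⟨K, d⟩ := exists_frobData R hR
  haveI hKn : K.Normal := d.2.2.1
  have hNK : N ≤ K := by
    rcases d.normal_le_or_le N hNn with h | h
    · exact h
    · exfalso
      apply hKN
      rw [← d.2.1]
      exact h
  have hRK : ∀ x, x ∈ R → x ∈ K → x = 1 := fun x hxR hxK =>
    d.mem_conj (g := 1) hxK (by simpa using hxR)
  have hdec : ∀ g : G, ∃ r ∈ R, ∃ k ∈ K, g = r * k := fun g =>
    (mem_sup_normal R K g).mp (by rw [sup_comm, d.2.2.2.sup_eq_top]; exact Subgroup.mem_top g)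
  have hmemR : ∀ g : G, (QuotientGroup.mk g : G ⧸ N) ∈ R.map (QuotientGroup.mk' N) ↔
      ∃ r ∈ R, r⁻¹ * g ∈ N := by
    intro g
    rw [Subgroup.mem_map]
    constructor
    · rintro ⟨r, hr, hrg⟩
      exact ⟨r, hr, QuotientGroup.eq.mp hrg⟩
    · rintro ⟨r, hr, hrg⟩
      exact ⟨r, hr, QuotientGroup.eq.mpr hrg⟩
  refine ⟨⟨?_, ?_, ?_⟩, ?_⟩
  · intro hbot
    obtain ⟨r, hrR, hr1⟩ : ∃ r ∈ R, r ≠ 1 := by
      by_contra hcon
      push_neg at hcon
      exact hR.1 ((Subgroup.eq_bot_iff_forall R).mpr hcon)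
    have h0 : (QuotientGroup.mk r : G ⧸ N) ∈ R.map (QuotientGroup.mk' N) :=
      Subgroup.mem_map.mpr ⟨r, hrR, rfl⟩
    rw [hbot, Subgroup.mem_bot, QuotientGroup.eq_one_iff] at h0
    exact hr1 (hRK r hrR (hNK h0))
  · intro htop
    apply hKN
    intro k hk
    have hkK : k ∈ K := by
      have h0 : k ∈ (K : Set G) := by rw [d.2.1]; exact hk
      exact h0
    have h0 : (QuotientGroup.mk k : G ⧸ N) ∈ R.map (QuotientGroup.mk' N) := by
      rw [htop]; exact Subgroup.mem_top _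
    obtain ⟨r, hrR, hrk⟩ := (hmemR k).mp h0
    have hrK : r ∈ K := by
      have h1 : r⁻¹ ∈ K := by
        have e : r⁻¹ = (r⁻¹ * k) * k⁻¹ := by group
        rw [e]; exact K.mul_mem (hNK hrk) (K.inv_mem hkK)
      simpa using K.inv_mem h1
    have hr1 := hRK r hrR hrK
    rw [hr1] at hrk
    simpa using hrk
  · intro gb hgb
    obtain ⟨g, rfl⟩ := QuotientGroup.mk_surjective gb
    rw [Subgroup.eq_bot_iff_forall]
    intro zb hzb
    obtain ⟨hz1, hz2⟩ := Subgroup.mem_inf.mp hzb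
    obtain ⟨r₁, hr₁R, rfl⟩ := Subgroup.mem_map.mp hz1
    rw [Cfsg.Agent.Helper1.mem_conj_smul_iff] at hz2
    have hz2' : (QuotientGroup.mk (g⁻¹ * r₁ * g) : G ⧸ N) ∈ R.map (QuotientGroup.mk' N) := by
      rw [QuotientGroup.mk_mul, QuotientGroup.mk_mul, QuotientGroup.mk_inv]; exact hz2
    obtain ⟨r₂, hr₂R, hr₂⟩ := (hmemR _).mp hz2'
    by_contra hne
    have hr₁1 : r₁ ≠ 1 := by
      rintro rfl
      exact hne (map_one _)
    obtain ⟨r, hrR, k, hkK, rfl⟩ := hdec g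
    obtain ⟨r₃, hr₃⟩ : ∃ r₃, r₃ = r⁻¹ * r₁ * r := ⟨_, rfl⟩
    have hr₃R : r₃ ∈ R := by rw [hr₃]; exact R.mul_mem (R.mul_mem (R.inv_mem hrR) hr₁R) hrR
    have hr₃1 : r₃ ≠ 1 := by
      intro h
      apply hr₁1
      have e : r₁ = r * (r⁻¹ * r₁ * r) * r⁻¹ := by group
      rw [e, ← hr₃, h]; simp
    have e1 : (r * k)⁻¹ * r₁ * (r * k) = k⁻¹ * r₃ * k := by rw [hr₃]; group
    rw [e1] at hr₂
    have h23 : r₂⁻¹ * r₃ ∈ K := by
      have e : r₂⁻¹ * r₃ = (r₂⁻¹ * (k⁻¹ * r₃ * k)) * (k⁻¹ * (r₃⁻¹ * k * r₃)) := by group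
      rw [e]
      refine K.mul_mem (hNK hr₂) (K.mul_mem (K.inv_mem hkK) ?_)
      have h0 := hKn.conj_mem k hkK r₃⁻¹
      simpa using h0
    have h23' : r₂⁻¹ * r₃ = 1 := hRK _ (R.mul_mem (R.inv_mem hr₂R) hr₃R) h23
    have hr₂eq : r₂ = r₃ := inv_injective (mul_eq_one_iff_eq_inv.mp h23')
    rw [hr₂eq] at hr₂
    have hσ : k⁻¹ * (r₃ * k⁻¹⁻¹ * r₃⁻¹) ∈ N := by
      have h0 := hNn.conj_mem _ hr₂ r₃
      have e : r₃ * (r₃⁻¹ * (k⁻¹ * r₃ * k)) * r₃⁻¹ = k⁻¹ * (r₃ * k⁻¹⁻¹ * r₃⁻¹) := by group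
      rw [e] at h0; exact h0
    have hkN : k⁻¹ ∈ N := d.mem_of_comm_mod N hNn hNK hr₃R hr₃1 (K.inv_mem hkK) hσ
    apply hgb
    exact (hmemR _).mpr ⟨r, hrR, by
      have e : r⁻¹ * (r * k) = k := by group
      rw [e]; simpa using N.inv_mem hkN⟩
  · ext xb
    obtain ⟨x, rfl⟩ := QuotientGroup.mk_surjective xb
    constructor
    · intro hx
      have hx' : (QuotientGroup.mk x : G ⧸ N) = 1 ∨ ∀ gb : G ⧸ N,
          (QuotientGroup.mk x : G ⧸ N) ∉ MulAut.conj gb • R.map (QuotientGroup.mk' N) := hx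
      have hxK : x ∈ K := by
        by_contra hxK
        obtain ⟨-, g, hg⟩ := d.not_mem hxK
        rcases hx' with h | h
        · exact hxK (hNK ((QuotientGroup.eq_one_iff x).mp h))
        · apply h (QuotientGroup.mk g)
          rw [Cfsg.Agent.Helper1.mem_conj_smul_iff]
          exact Subgroup.mem_map.mpr ⟨g⁻¹ * x * g, hg, rfl⟩
      exact ⟨x, by rw [← d.2.1]; exact hxK, rfl⟩
    · rintro ⟨k, hk, hkx⟩
      have hkK : k ∈ K := by
        have h0 : k ∈ (K : Set G) := by rw [d.2.1]; exact hk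
        exact h0
      rw [← hkx]
      show (QuotientGroup.mk' N k = 1) ∨ ∀ gb : G ⧸ N,
        QuotientGroup.mk' N k ∉ MulAut.conj gb • R.map (QuotientGroup.mk' N)
      by_cases hkN : k ∈ N
      · left; exact (QuotientGroup.eq_one_iff k).mpr hkN
      · right
        intro gb hmem
        obtain ⟨g, rfl⟩ := QuotientGroup.mk_surjective gb
        rw [Cfsg.Agent.Helper1.mem_conj_smul_iff] at hmem
        have hmem' : (QuotientGroup.mk (g⁻¹ * k * g) : G ⧸ N) ∈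
            R.map (QuotientGroup.mk' N) := by
          rw [QuotientGroup.mk_mul, QuotientGroup.mk_mul, QuotientGroup.mk_inv]; exact hmem
        obtain ⟨r, hrR, hr⟩ := (hmemR _).mp hmem'
        have hgk : g⁻¹ * k * g ∈ K := by
          have h0 := hKn.conj_mem k hkK g⁻¹
          simpa using h0
        have hrK : r ∈ K := by
          have h1 : r⁻¹ ∈ K := by
            have e : r⁻¹ = (r⁻¹ * (g⁻¹ * k * g)) * (g⁻¹ * k * g)⁻¹ := by group
            rw [e]; exact K.mul_mem (hNK hr) (K.inv_mem hgk)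
          simpa using K.inv_mem h1
        have hr1 := hRK r hrR hrK
        rw [hr1] at hr
        have hgkN : g⁻¹ * k * g ∈ N := by simpa using hr
        apply hkN
        have h0 := hNn.conj_mem _ hgkN g
        have e : g * (g⁻¹ * k * g) * g⁻¹ = k := by group
        rw [e] at h0; exact h0

end Cfsg.Agent.Lead
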