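import Mathlib
import Cfsg.Prelude.Def_GeometricClasses

set_option autoImplicit false
open scoped MatrixGroups

namespace Cfsg.Agent.Lead.S5998p10

theorem core (p a b S : ℕ) (hp1 : p = 3 * a + 1) (hb : p ^ 2 + p + 1 = 3 * b)
    (h3a : ¬ 3 ∣ a) (h3b : ¬ 3 ∣ b) (h3p : ¬ 3 ∣ p) (h3c : ¬ 3 ∣ p + 1)
    (h : S * (p - 1) = (p ^ 3 - 1) * (p ^ 3 - p) * (p ^ 3 - p ^ 2)) : ¬ 81 ∣ S := by
  have ha0 : 0 < a := by
    rcases Nat.eq_zero_or_pos a with h0 | h0
    · exact absurd (h0 ▸ dvd_zero 3) h3a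
    · exact h0
  have e0 : p - 1 = 3 * a := by omega
  have e1 : p ^ 3 - 1 = 3 * a * (3 * b) := by
    apply Nat.sub_eq_of_eq_add
    rw [← hb, hp1]; ring
  have e2 : p ^ 3 - p = p * (3 * a) * (p + 1) := by
    apply Nat.sub_eq_of_eq_add
    rw [hp1]; ring
  have e3 : p ^ 3 - p ^ 2 = p ^ 2 * (3 * a) := by
    apply Nat.sub_eq_of_eq_add
    rw [hp1]; ring
  rw [e0, e1, e2, e3] at h
  have hS : S = 27 * (b * p ^ 3 * a ^ 2 * (p + 1)) :=
    Nat.eq_of_mul_eq_mul_right (by omega : 0 < 3 * a) (h.trans (by ring))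
  intro h81
  rw [hS] at h81
  have h3 : 3 ∣ b * p ^ 3 * a ^ 2 * (p + 1) :=
    Nat.dvd_of_mul_dvd_mul_left (by norm_num : 0 < 27) (by simpa using h81)
  rcases (Nat.Prime.dvd_mul Nat.prime_three).mp h3 with h4 | h4
  · rcases (Nat.Prime.dvd_mul Nat.prime_three).mp h4 with h5 | h5
    · rcases (Nat.Prime.dvd_mul Nat.prime_three).mp h5 with h6 | h6
      · exact h3b h6
      · exact h3p (Nat.Prime.dvd_of_dvd_pow Nat.prime_three h6)
    · exact h3a (Nat.Prime.dvd_of_dvd_pow Nat.prime_three h5)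
  · exact h3c h4

theorem not81 (p S : ℕ) (hp : p % 9 = 4 ∨ p % 9 = 7)
    (h : S * (p - 1) = (p ^ 3 - 1) * (p ^ 3 - p) * (p ^ 3 - p ^ 2)) : ¬ 81 ∣ S := by
  rcases hp with hp | hp
  · obtain ⟨k, hk⟩ : ∃ k, p = 9 * k + 4 := ⟨p / 9, by omega⟩
    refine core p (3 * k + 1) (27 * k ^ 2 + 27 * k + 7) S (by omega) (by rw [hk]; ring)
      (by omega) ?_ (by omega) (by omega) h
    intro h3
    have h2 : 3 ∣ 27 * k ^ 2 + 27 * k := ⟨9 * k ^ 2 + 9 * k, by ring⟩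
    have h7 : 3 ∣ 7 := (Nat.dvd_add_right h2).mp h3
    omega
  · obtain ⟨k, hk⟩ : ∃ k, p = 9 * k + 7 := ⟨p / 9, by omega⟩
    refine core p (3 * k + 2) (27 * k ^ 2 + 45 * k + 19) S (by omega) (by rw [hk]; ring)
      (by omega) ?_ (by omega) (by omega) h
    intro h3
    have h2 : 3 ∣ 27 * k ^ 2 + 45 * k := ⟨9 * k ^ 2 + 15 * k, by ring⟩
    have h7 : 3 ∣ 19 := (Nat.dvd_add_right h2).mp h3
    omega

theorem p10 {F : Type*} [Field F] [Fintype F] {p : ℕ} [Fact p.Prime] [CharP F p] (hF : Fintype.card F = p) (hp3 : p % 3 = 1) (hp9 : p % 9 ≠ 1)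
    (R : Subgroup (GL (Fin 3) F)) (hR : Nat.card R = 27) (hRSL : R ≤ Cfsg.Geo.specialLinear (Fin 3) F) :
    ¬ 3 ∣ (Cfsg.Geo.subgroupNormalizer R).relIndex (Cfsg.Geo.specialLinear (Fin 3) F) := by
  classical
  intro h3
  have hcS : Nat.card (Cfsg.Geo.specialLinear (Fin 3) F) * (Fintype.card F - 1)
      = Nat.card (GL (Fin 3) F) := by
    have hFc : Nat.card F = Fintype.card F := Nat.card_eq_fintype_card
    have h2 := Subgroup.card_mul_index (Matrix.GeneralLinearGroup.det : GL (Fin 3) F →* Fˣ).ker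
    rw [Subgroup.index_ker, MonoidHom.range_eq_top.2 Matrix.GeneralLinearGroup.det_surjective,
      Subgroup.card_top, Nat.card_units, hFc] at h2
    exact h2
  have hGL : Nat.card (GL (Fin 3) F)
      = ∏ i : Fin 3, (Fintype.card F ^ 3 - Fintype.card F ^ (i : ℕ)) := Matrix.card_GL_field 3
  have hcS' : Nat.card (Cfsg.Geo.specialLinear (Fin 3) F) * (p - 1)
      = (p ^ 3 - 1) * (p ^ 3 - p) * (p ^ 3 - p ^ 2) := by
    rw [hGL, Fin.prod_univ_three, hF] at hcS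
    simpa using hcS
  have h81 : ¬ 81 ∣ Nat.card (Cfsg.Geo.specialLinear (Fin 3) F) :=
    not81 p _ (by omega) hcS'
  apply h81
  have hRN : R ≤ Cfsg.Geo.subgroupNormalizer R := Subgroup.le_normalizer
  have hle : R.subgroupOf (Cfsg.Geo.specialLinear (Fin 3) F)
      ≤ (Cfsg.Geo.subgroupNormalizer R).subgroupOf (Cfsg.Geo.specialLinear (Fin 3) F) := by
    intro x hx
    rw [Subgroup.mem_subgroupOf] at hx ⊢
    exact hRN hx
  have hc27 : Nat.card (R.subgroupOf (Cfsg.Geo.specialLinear (Fin 3) F)) = 27 := by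
    rw [← hR]
    exact Nat.card_congr (Subgroup.subgroupOfEquivOfLe hRSL).toEquiv
  have hdv : 27 ∣ Nat.card
      ((Cfsg.Geo.subgroupNormalizer R).subgroupOf (Cfsg.Geo.specialLinear (Fin 3) F)) := by
    rw [← hc27]; exact Subgroup.card_dvd_of_le hle
  have hmul := Subgroup.card_mul_index
    ((Cfsg.Geo.subgroupNormalizer R).subgroupOf (Cfsg.Geo.specialLinear (Fin 3) F))
  rw [← hmul]
  have e81 : (81 : ℕ) = 27 * 3 := by norm_num
  rw [e81]
  exact Nat.mul_dvd_mul hdv h3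

end Cfsg.Agent.Lead.S5998p10
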